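import Cfsg.Agent.Lib.Helper28.Descent.Main

/-! Gram matrices of sesquilinear functions, and descent for a group fixing a bilinear and a unitary form. -/

set_option autoImplicit false
set_option linter.unusedSectionVars false

namespace Cfsg.Agent.Lib.Helper28.Descent

open Cfsg Cfsg.Geo
open scoped MatrixGroups Matrix

variable {ι : Type} [Fintype ι] [DecidableEq ι] {F : Type*} [Field F]

/-- expansion of a function linear in the first and `τ`-semilinear in the second variable. -/
theorem sesq_expand (τ : F →+* F) (f : (ι → F) → (ι → F) → F)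
    (hal : ∀ x y v, f (x + y) v = f x v + f y v) (hsl : ∀ (c : F) (x v : ι → F), f (c • x) v = c * f x v)
    (har : ∀ v x y, f v (x + y) = f v x + f v y) (hsr : ∀ (c : F) (v x : ι → F), f v (c • x) = τ c * f v x)
    (u v : ι → F) :
    f u v = ∑ i, ∑ j, u i * f (Pi.single i 1) (Pi.single j 1) * τ (v j) := by
  classical
  let L : (ι → F) → ((ι → F) →ₗ[F] F) := fun w =>
    { toFun := fun x => f x w
      map_add' := fun x y => hal x y w
      map_smul' := fun c x => by simpa using hsl c x w }
  let R : (ι → F) → ((ι → F) →+ F) := fun w =>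
    { toFun := fun x => f w x
      map_zero' := by
        have := har w 0 0
        simp only [add_zero] at this
        exact left_eq_add.mp this
      map_add' := fun x y => har w x y }
  have h1 : f u v = ∑ i, u i * f (Pi.single i 1) v := by
    have hu : u = ∑ i, u i • (Pi.single i (1 : F) : ι → F) := pi_eq_sum_univ' u
    have : L v u = ∑ i, L v (u i • (Pi.single i (1 : F) : ι → F)) := by
      conv_lhs => rw [hu]
      exact map_sum (L v) _ _
    have h3 : f u v = ∑ i, f (u i • (Pi.single i (1 : F) : ι → F)) v := this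
    rw [h3]
    apply Finset.sum_congr rfl
    intro i _
    rw [hsl]
  have h2 : ∀ w, f w v = ∑ j, f w (Pi.single j 1) * τ (v j) := by
    intro w
    have hv : v = ∑ j, v j • (Pi.single j (1 : F) : ι → F) := pi_eq_sum_univ' v
    have : R w v = ∑ j, R w (v j • (Pi.single j (1 : F) : ι → F)) := by
      conv_lhs => rw [hv]
      exact map_sum (R w) _ _
    have h3 : f w v = ∑ j, f w (v j • (Pi.single j (1 : F) : ι → F)) := this
    rw [h3]
    apply Finset.sum_congr rfl
    intro j _
    rw [hsr, mul_comm]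
  rw [h1]
  apply Finset.sum_congr rfl
  intro i _
  rw [h2, Finset.mul_sum]
  apply Finset.sum_congr rfl
  intro j _
  rw [mul_assoc]

/-- the Gram matrix. -/
theorem exists_gram (τ : F →+* F) (f : (ι → F) → (ι → F) → F)
    (hal : ∀ x y v, f (x + y) v = f x v + f y v) (hsl : ∀ (c : F) (x v : ι → F), f (c • x) v = c * f x v)
    (har : ∀ v x y, f v (x + y) = f v x + f v y) (hsr : ∀ (c : F) (v x : ι → F), f v (c • x) = τ c * f v x)
    (hnd : IsNondegenerateForm f) (S : Set (Matrix ι ι F)) (hfix : FixesForm S f) :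
    ∃ U : Matrix ι ι F, U.det ≠ 0 ∧ ∀ s ∈ S, sᵀ * U * s.map τ = U := by
  classical
  refine ⟨Matrix.of fun i j => f (Pi.single i 1) (Pi.single j 1), ?_, ?_⟩
  · intro hdet
    obtain ⟨w, hw0, hw⟩ := Matrix.exists_vecMul_eq_zero_iff.2 hdet
    obtain ⟨x, hx⟩ := (hnd w hw0).2
    apply hx
    rw [sesq_expand τ f hal hsl har hsr, Finset.sum_comm]
    apply Finset.sum_eq_zero
    intro j _
    have := congrFun hw j
    simp only [Matrix.vecMul, dotProduct, Matrix.of_apply, Pi.zero_apply] at this
    rw [← Finset.sum_mul, this, zero_mul]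
  · intro s hs
    ext i j
    have h1 := hfix s hs (Pi.single i 1) (Pi.single j 1)
    rw [sesq_expand τ f hal hsl har hsr] at h1
    rw [Matrix.of_apply, ← h1, Matrix.mul_apply]
    simp only [Matrix.mul_apply, Matrix.transpose_apply, Matrix.of_apply, Matrix.map_apply,
      Matrix.mulVec_single_one, Matrix.col_apply, Finset.sum_mul]
    exact Finset.sum_comm

/-- two Gram matrices give a semilinear intertwiner. -/
theorem semilinear_of_grams (τ : F →+* F) (P : Subgroup (GL ι F)) (G U : Matrix ι ι F) (hG : G.det ≠ 0)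
    (hU : U.det ≠ 0) (h1 : ∀ s ∈ matrixSet P, sᵀ * G * s = G) (h2 : ∀ s ∈ matrixSet P, sᵀ * U * s.map τ = U) :
    (U⁻¹ * G).det ≠ 0 ∧ ∀ s ∈ matrixSet P, s.map τ * (U⁻¹ * G) = (U⁻¹ * G) * s := by
  have hUu : IsUnit U.det := isUnit_iff_ne_zero.2 hU
  constructor
  · rw [Matrix.det_mul]
    refine mul_ne_zero ?_ hG
    intro h0
    have := Matrix.det_mul U⁻¹ U
    rw [Matrix.nonsing_inv_mul _ hUu, Matrix.det_one, h0, zero_mul] at this
    exact one_ne_zero this
  · rintro s ⟨x, hx, rfl⟩
    have hs : ((x : Matrix ι ι F)).det ≠ 0 :=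
      ((Matrix.isUnit_iff_isUnit_det (x : Matrix ι ι F)).1 x.isUnit).ne_zero
    have hdet : IsUnit ((x : Matrix ι ι F)ᵀ * U).det := by
      rw [Matrix.det_mul, Matrix.det_transpose]
      exact isUnit_iff_ne_zero.2 (mul_ne_zero hs hU)
    have hx' : (x : Matrix ι ι F) ∈ matrixSet P := ⟨x, hx, rfl⟩
    have e1 : ((x : Matrix ι ι F)ᵀ * U) * ((x : Matrix ι ι F).map τ * (U⁻¹ * G)) = G := by
      rw [← Matrix.mul_assoc, h2 _ hx', ← Matrix.mul_assoc, Matrix.mul_nonsing_inv _ hUu, Matrix.one_mul]
    have e2 : ((x : Matrix ι ι F)ᵀ * U) * ((U⁻¹ * G) * (x : Matrix ι ι F)) = G := by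
      rw [← Matrix.mul_assoc, ← Matrix.mul_assoc, Matrix.mul_assoc _ U, Matrix.mul_nonsing_inv _ hUu,
        Matrix.mul_one, h1 _ hx']
    have := congrArg (fun Y => ((x : Matrix ι ι F)ᵀ * U)⁻¹ * Y) (e1.trans e2.symm)
    simpa only [← Matrix.mul_assoc, Matrix.nonsing_inv_mul _ hdet, Matrix.one_mul] using this

/-- **a bilinear and a unitary invariant form: realisable over the fixed field.** -/
theorem realisable_of_bilin_unitary [Finite F] [Nonempty ι] (P : Subgroup (GL ι F))
    (hP : ActsAbsolutelyIrreducibly (matrixSet P))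
    (f : (ι → F) → (ι → F) → F) (hf : IsBilinearForm f) (hfn : IsNondegenerateForm f)
    (hfP : FixesForm (matrixSet P) f) (σ : F ≃+* F) (g : (ι → F) → (ι → F) → F) (hg : IsUnitaryForm σ g)
    (hgP : FixesForm (matrixSet P) g) : ∃ F₀ : Subfield F, F₀ ≠ ⊤ ∧ RealisableOver F₀ (matrixSet P) := by
  obtain ⟨G, hG, hG2⟩ := exists_gram (RingHom.id F) f hf.add_left hf.smul_left hf.add_right
    (by intro c v x; simpa using hf.smul_right c v x) hfn (matrixSet P) hfP
  obtain ⟨U, hU, hU2⟩ := exists_gram (σ : F →+* F) g hg.add_left hg.smul_left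
    (by
      intro v x y
      rw [hg.herm v (x + y), hg.add_left, map_add, ← hg.herm, ← hg.herm])
    (by
      intro c v x
      rw [hg.herm v (c • x), hg.smul_left, map_mul, ← hg.herm]
      rfl) hg.nondegenerate (matrixSet P) hgP
  have hG3 : ∀ s ∈ matrixSet P, sᵀ * G * s = G := by
    intro s hs
    have := hG2 s hs
    have e : s.map (RingHom.id F) = s := by ext i j; rfl
    rwa [e] at this
  obtain ⟨hA, hA2⟩ := semilinear_of_grams (σ : F →+* F) P G U hG hU hG3 hU2
  exact realisable_of_semilinear σ hg.involutive hg.ne_refl P hP _ hA hA2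

end Cfsg.Agent.Lib.Helper28.Descent
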