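import Mathlib
import Cfsg.Prelude.Def_GeometricClasses
import Cfsg.Agent.Lib.Helper18.AutPSL.H90
import Cfsg.Agent.Lib.Helper11.AschO.UN3

/-! Galois descent for an absolutely irreducible matrix group over a finite field which is conjugate to its
twist by an involutive field automorphism (general index type). -/

set_option autoImplicit false
set_option linter.unusedSectionVars false

namespace Cfsg.Agent.Lib.Helper28.Descent

open Cfsg Cfsg.Geo
open scoped MatrixGroups Matrix

variable {ι : Type} [Fintype ι] [DecidableEq ι] {F : Type*} [Field F]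

theorem map_map_invol (σ : F ≃+* F) (hσ : ∀ a, σ (σ a) = a) (A : Matrix ι ι F) :
    (A.map σ).map σ = A := by
  ext i j
  simp [hσ]

theorem map_mul_sig (σ : F ≃+* F) (A B : Matrix ι ι F) : (A * B).map σ = A.map σ * B.map σ :=
  Matrix.map_mul

theorem map_smul_sig (σ : F ≃+* F) (c : F) (A : Matrix ι ι F) : (c • A).map σ = σ c • A.map σ := by
  ext i j
  simp

theorem map_one_sig (σ : F ≃+* F) : (1 : Matrix ι ι F).map σ = 1 := by
  ext i j
  by_cases h : i = j
  · subst h; simp
  · simp [Matrix.one_apply_ne h]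

/-- surjectivity of the norm of an involution of a finite field. -/
theorem exists_norm [Finite F] (σ : F ≃+* F) (hσ : ∀ a, σ (σ a) = a) (hne : σ ≠ RingEquiv.refl F)
    (c : F) (hc0 : c ≠ 0) (hc : σ c = c) : ∃ l : F, l ≠ 0 ∧ σ l * l = c := by
  have ho : orderOf σ = 2 := by
    apply orderOf_eq_prime
    · ext a
      rw [pow_two]
      exact hσ a
    · intro h
      exact hne h
  obtain ⟨μ, hμ0, hμ⟩ := Cfsg.Agent.Lib.Helper18.AutPSL.nrmS_surj σ 2 (by norm_num) ho c hc0 hc
  refine ⟨μ, hμ0, ?_⟩
  rw [← hμ]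
  simp only [Cfsg.Agent.Lib.Helper18.AutPSL.nrmS, map_one, mul_one]
  exact mul_comm _ _

/-- **Galois descent.** -/
theorem realisable_of_semilinear [Finite F] [Nonempty ι] (σ : F ≃+* F) (hσ : ∀ a, σ (σ a) = a)
    (hne : σ ≠ RingEquiv.refl F) (P : Subgroup (GL ι F))
    (hP : ActsAbsolutelyIrreducibly (matrixSet P)) (M : Matrix ι ι F) (hM : M.det ≠ 0)
    (h : ∀ s ∈ matrixSet P, s.map σ * M = M * s) :
    ∃ F₀ : Subfield F, F₀ ≠ ⊤ ∧ RealisableOver F₀ (matrixSet P) := by
  classical
  -- `σ(M) M` is scalar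
  have h' : ∀ s ∈ matrixSet P, s * M.map σ = M.map σ * s.map σ := by
    intro s hs
    have := congrArg (fun X : Matrix ι ι F => X.map σ) (h s hs)
    simp only [map_mul_sig, map_map_invol σ hσ] at this
    exact this
  obtain ⟨c, hc⟩ := hP.2 (M.map σ * M) (by
    intro s hs
    rw [Matrix.mul_assoc, ← h s hs, ← Matrix.mul_assoc, ← h' s hs, Matrix.mul_assoc])
  have hdσ : (M.map σ).det ≠ 0 := by
    have : (M.map σ).det = σ M.det := by
      have := (RingHom.map_det (σ : F →+* F) M)
      exact this.symm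
    rw [this]
    simpa using hM
  have hc0 : c ≠ 0 := by
    intro h0
    have := congrArg Matrix.det hc
    rw [Matrix.det_mul, h0, zero_smul, Matrix.det_zero] at this
    exact (mul_ne_zero hdσ hM) this
  have hc2 : M * M.map σ = c • 1 := by
    have h1 : (c⁻¹ • M.map σ) * M = 1 := by
      rw [Matrix.smul_mul, hc, smul_smul, inv_mul_cancel₀ hc0, one_smul]
    have h2 := mul_eq_one_comm.1 h1
    rw [Matrix.mul_smul] at h2
    have := congrArg (fun X : Matrix ι ι F => c • X) h2
    simp only [smul_smul, mul_inv_cancel₀ hc0, one_smul] at this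
    exact this
  have hcσ : σ c = c := by
    have := congrArg (fun X : Matrix ι ι F => X.map σ) hc
    simp only [map_mul_sig, map_map_invol σ hσ, map_smul_sig, map_one_sig] at this
    rw [hc2] at this
    obtain ⟨i⟩ := ‹Nonempty ι›
    have h3 := congrFun (congrFun this i) i
    simpa using h3.symm
  obtain ⟨l, hl0, hl⟩ := exists_norm σ hσ hne c⁻¹ (inv_ne_zero hc0) (by rw [map_inv₀, hcσ])
  have hA : (l • M).map σ * (l • M) = 1 := by
    rw [map_smul_sig, Matrix.smul_mul, Matrix.mul_smul, hc, smul_smul, smul_smul, hl,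
      inv_mul_cancel₀ hc0, one_smul]
  obtain ⟨B, hB⟩ := Cfsg.Agent.Lib.Helper11.AschO.hilbert90 σ hσ hne (l • M) hA
  refine ⟨Cfsg.Agent.Lib.Helper11.AschO.fixF σ, ?_, B, ?_⟩
  · intro htop
    apply hne
    ext a
    have : a ∈ Cfsg.Agent.Lib.Helper11.AschO.fixF σ := by rw [htop]; trivial
    exact this
  · intro s hs i j
    set X : Matrix ι ι F := (B : Matrix ι ι F) * s * ((B⁻¹ : GL ι F) : Matrix ι ι F) with hX
    have hXB : X * (B : Matrix ι ι F) = (B : Matrix ι ι F) * s := by
      rw [hX, Matrix.mul_assoc, ← Units.val_mul, inv_mul_cancel, Units.val_one, Matrix.mul_one]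
    have h1 : X.map σ * (B : Matrix ι ι F).map σ = (B : Matrix ι ι F).map σ * s.map σ := by
      rw [← map_mul_sig, hXB, map_mul_sig]
    have h2 : X.map σ * (B : Matrix ι ι F) = X * (B : Matrix ι ι F) := by
      rw [hXB]
      conv_lhs => rw [← hB]
      have h4 : s.map σ * (l • M) = (l • M) * s := by
        rw [Matrix.mul_smul, h s hs, Matrix.smul_mul]
      rw [← Matrix.mul_assoc, h1, Matrix.mul_assoc, h4, ← Matrix.mul_assoc, hB]
    have h3 : X.map σ = X := by
      have := congrArg (fun Y : Matrix ι ι F => Y * ((B⁻¹ : GL ι F) : Matrix ι ι F)) h2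
      simp only [Matrix.mul_assoc, ← Units.val_mul, mul_inv_cancel, Units.val_one, Matrix.mul_one] at this
      exact this
    exact congrFun (congrFun h3 i) j

end Cfsg.Agent.Lib.Helper28.Descent
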